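import Cfsg.Agent.H47.HT.Norm
import Cfsg.Agent.H428.HT.VanMax
import Cfsg.Agent.H749.TwoStab
import Cfsg.Agent.H749.TwoDown
import Cfsg.Agent.H576.Ext.SemiL
import Cfsg.Agent.H113.NormTwoChar
import Cfsg.Agent.S0157

/-!
# `⟨R(c ⊗ χ), R(c ⊗ χ')⟩ = 2 ⟨χ, χ'⟩` for constituents of the permutation character (helper47, S4933)

`Cmp F F' j W₀`, `ρ` the homomorphism of the stabiliser of `W₀` on `F'.iso`:
* `psf_opp` : `ψ g W' = ψ g W₀` at the opposites, `ψ = psf F W₀ (χ ∘ ρ)`;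
* `pm_rho` : `pm F g W₀ = pm F' (ρ g) ⊥`;
* `inner_psf` : the norm, `χ`, `χ'` constituents of `pm F' · ⊥` (maximal totally singular subspaces of `F'`).
-/

set_option autoImplicit false
set_option linter.unusedSectionVars false
set_option linter.style.haveILetI false

open scoped ComplexConjugate
open Cfsg

namespace Cfsg.Agent.H47.HT

open Cfsg.Agent.OddOrderCharacters.Clifford Cfsg.Agent.Characters MulAction Module Cfsg.Agent.H53.HC
open Cfsg.Agent.H477.HC Cfsg.Agent.H477.HC.CForm Cfsg.Agent.H749.Two Cfsg.Agent.H428.HT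

universe u v w

variable {K : Type u} [Field K] {V : Type v} [AddCommGroup V] [Module K V] {X : Type w} [AddCommGroup X] [Module K X]
  {F : CForm K V} {F' : CForm K X} {j : X →ₗ[K] V} {W₀ : Submodule K V}

theorem stab_mem {W : Submodule K V} {g : F.iso} (hg : g ∈ stabW F.iso.subtype W) {v : V} (hv : v ∈ W) :
    (g : V ≃ₗ[K] V) v ∈ W := by
  have h1 : W.map (F.iso.subtype g : V →ₗ[K] V) = W := hg
  have : F.iso.subtype g v ∈ W.map (F.iso.subtype g : V →ₗ[K] V) := ⟨v, hv, rfl⟩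
  rwa [h1] at this

theorem stab_perp {W : Submodule K V} {g : F.iso} (hg : g ∈ stabW F.iso.subtype W) {v : V}
    (hv : ∀ w ∈ W, F.B v w = 0) : ∀ w ∈ W, F.B ((g : V ≃ₗ[K] V) v) w = 0 := by
  intro w hw
  have h1 : W.map (F.iso.subtype g : V →ₗ[K] V) = W := hg
  rw [← h1] at hw
  obtain ⟨w', hw', rfl⟩ := hw
  exact (F.iso_B g v w').trans (hv w' hw')

/-- `ρ g` is determined by the action of `g` on `j X` modulo `W₀` -/
theorem rho_ext [FiniteDimensional K X] (h : Cmp F F' j W₀) {ρ : stabW F.iso.subtype W₀ →* F'.iso}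
    (hρ1 : ∀ (g : stabW F.iso.subtype W₀) x, ((g : F.iso) : V ≃ₗ[K] V) (j x) - j ((ρ g : X ≃ₗ[K] X) x) ∈ W₀)
    {s t : stabW F.iso.subtype W₀}
    (hst : ∀ x, ((s : F.iso) : V ≃ₗ[K] V) (j x) - ((t : F.iso) : V ≃ₗ[K] V) (j x) ∈ W₀) : ρ s = ρ t := by
  obtain ⟨r, -, hrj, hrW⟩ := h.exists_proj
  apply Subtype.ext
  ext x
  have h1 : j ((ρ s : X ≃ₗ[K] X) x) - j ((ρ t : X ≃ₗ[K] X) x) ∈ W₀ := by
    have e : j ((ρ s : X ≃ₗ[K] X) x) - j ((ρ t : X ≃ₗ[K] X) x) =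
        (((s : F.iso) : V ≃ₗ[K] V) (j x) - ((t : F.iso) : V ≃ₗ[K] V) (j x)) -
        (((s : F.iso) : V ≃ₗ[K] V) (j x) - j ((ρ s : X ≃ₗ[K] X) x)) +
        (((t : F.iso) : V ≃ₗ[K] V) (j x) - j ((ρ t : X ≃ₗ[K] X) x)) := by abel
    rw [e]
    exact W₀.add_mem (W₀.sub_mem (hst x) (hρ1 s x)) (hρ1 t x)
  have h2 := hrW _ h1
  rw [map_sub, hrj, hrj, sub_eq_zero] at h2
  exact h2

/-- the values at the opposites -/
theorem psf_opp [FiniteDimensional K V] [FiniteDimensional K X] (h : Cmp F F' j W₀)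
    {ρ : stabW F.iso.subtype W₀ →* F'.iso}
    (hρ1 : ∀ (g : stabW F.iso.subtype W₀) x, ((g : F.iso) : V ≃ₗ[K] V) (j x) - j ((ρ g : X ≃ₗ[K] X) x) ∈ W₀)
    {χ : F'.iso → ℂ} (hχ : IsClassFunction F'.iso χ) {W' : Submodule K V} (hW' : F.TS W')
    (hd : finrank K W₀ = finrank K W') (h0 : W₀ ⊓ F.perp W' = ⊥) {g : F.iso} (hg : g ∈ stabW F.iso.subtype W₀)
    (hg' : g ∈ stabW F.iso.subtype W') :
    psf F W₀ (fun s => χ (ρ s)) g W' = psf F W₀ (fun s => χ (ρ s)) g W₀ := by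
  classical
  have hcl : IsClassFunction (stabW F.iso.subtype W₀) (fun s => χ (ρ s)) := by
    intro s t
    change χ (ρ (t * s * t⁻¹)) = χ (ρ s)
    rw [map_mul, map_mul, map_inv]
    exact hχ _ _
  obtain ⟨x, hx, hx'⟩ := F.exists_swap h.ts hW' hd h0
  have hs : x⁻¹ * g * x ∈ stabW F.iso.subtype W₀ := stabW_map.1 (by rw [hx]; exact hg')
  rw [psf_eq hcl hx hs, psf_self hcl ⟨g, hg⟩]
  congr 1
  refine rho_ext h hρ1 fun y => ?_
  have h0' := opp_symm (F := F) rfl hd.symm h0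
  obtain ⟨P, hP⟩ := F.exists_proj (W₀ := W₀) (W' := W')
    (fun w hw hw' => by
      have : w ∈ W₀ ⊓ F.perp W' := ⟨hw, hw'⟩
      rw [h0] at this
      exact (Submodule.mem_bot K).1 this)
    (fun w hw hw' => by
      have : w ∈ W' ⊓ F.perp W₀ := ⟨hw, fun w' hw'' => F.B_eq_zero (hw' w' hw'')⟩
      rw [h0'] at this
      exact (Submodule.mem_bot K).1 this)
  obtain ⟨v, hv⟩ : ∃ v, v = j y - (P (j y) : V) := ⟨_, rfl⟩
  have hjv : j y = v + (P (j y) : V) := by rw [hv]; abel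
  have v1 : ∀ w ∈ W₀, F.B v w = 0 := by
    intro w hw
    rw [hv, F.B_sub_left, h.j1 y w hw, h.ts.2 _ (P (j y)).2 w hw, sub_zero]
  have v2 : ∀ w ∈ W', F.B v w = 0 := by
    intro w hw
    rw [hv, F.B_sub_left, ← hP (j y) w hw, sub_self]
  have v3 : (x : V ≃ₗ[K] V) v = v := hx' v v1 v2
  have v4 : (x : V ≃ₗ[K] V) ((g : V ≃ₗ[K] V) v) = (g : V ≃ₗ[K] V) v :=
    hx' _ (stab_perp hg v1) (stab_perp hg' v2)
  have v5 : ((x⁻¹ * g * x : F.iso) : V ≃ₗ[K] V) v = (g : V ≃ₗ[K] V) v := by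
    change (x : V ≃ₗ[K] V).symm ((g : V ≃ₗ[K] V) ((x : V ≃ₗ[K] V) v)) = _
    rw [v3, LinearEquiv.symm_apply_eq, v4]
  change ((x⁻¹ * g * x : F.iso) : V ≃ₗ[K] V) (j y) - (g : V ≃ₗ[K] V) (j y) ∈ W₀
  have e : ((x⁻¹ * g * x : F.iso) : V ≃ₗ[K] V) (j y) - (g : V ≃ₗ[K] V) (j y) =
      ((x⁻¹ * g * x : F.iso) : V ≃ₗ[K] V) (P (j y) : V) - (g : V ≃ₗ[K] V) (P (j y) : V) := by
    conv_lhs => rw [hjv, map_add, map_add, v5]
    abel
  rw [e]
  exact W₀.sub_mem (stab_mem hs (P (j y)).2) (stab_mem hg (P (j y)).2)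

theorem psf_add (ψ₁ ψ₂ : stabW F.iso.subtype W₀ → ℂ) (g : F.iso) (W : Submodule K V) :
    psf F W₀ (fun s => ψ₁ s + ψ₂ s) g W = psf F W₀ ψ₁ g W + psf F W₀ ψ₂ g W := by
  classical
  unfold psf
  by_cases h : ∃ x : F.iso, W₀.map (F.iso.subtype x : V →ₗ[K] V) = W ∧ x⁻¹ * g * x ∈ stabW F.iso.subtype W₀
  · rw [dif_pos h, dif_pos h, dif_pos h]
  · rw [dif_neg h, dif_neg h, dif_neg h, add_zero]

/-! ### maximal totally singular subspaces -/

theorem TS_map_j (h : Cmp F F' j W₀) {U : Submodule K X} (hU : F'.TS U) : F.TS (U.map j) := by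
  refine ⟨?_, ?_⟩
  · rintro _ ⟨x, hx, rfl⟩
    rw [h.jQ, hU.1 x hx]
  · rintro _ ⟨x, hx, rfl⟩ _ ⟨y, hy, rfl⟩
    rw [h.jB, hU.2 x hx y hy]

theorem TS_comap_j (h : Cmp F F' j W₀) {U : Submodule K V} (hU : F.TS U) : F'.TS (U.comap j) := by
  refine ⟨fun x hx => ?_, fun x hx y hy => ?_⟩
  · rw [← h.jQ, hU.1 _ hx]
  · rw [← h.jB, hU.2 _ hx _ hy]

theorem TS_sup_j (h : Cmp F F' j W₀) {U : Submodule K X} (hU : F'.TS U) : F.TS (W₀ ⊔ U.map j) := by
  refine F.TS_sup h.ts (TS_map_j h hU) fun w hw => ?_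
  rintro _ ⟨x, -, rfl⟩
  exact F.B_eq_zero (h.j1 x w hw)

theorem sup_comap_j (h : Cmp F F' j W₀) {U : Submodule K V} (hU : F.TS U) (hW : W₀ ≤ U) :
    W₀ ⊔ (U.comap j).map j = U := by
  apply le_antisymm
  · refine sup_le hW ?_
    rintro _ ⟨x, hx, rfl⟩
    exact hx
  · intro u hu
    obtain ⟨w, hw, x, rfl⟩ := h.j2 u fun w hw => hU.2 u hu w (hW hw)
    refine Submodule.add_mem_sup hw ⟨x, ?_, rfl⟩
    change j x ∈ U
    have := U.sub_mem hu (hW hw)
    rwa [add_sub_cancel_left] at this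

theorem comap_sup_j [FiniteDimensional K X] (h : Cmp F F' j W₀) (U : Submodule K X) :
    (W₀ ⊔ U.map j).comap j = U := by
  obtain ⟨r, -, hrj, hrW⟩ := h.exists_proj
  ext x
  constructor
  · intro hx
    obtain ⟨w, hw, y, ⟨z, hz, rfl⟩, hy⟩ := Submodule.mem_sup.1 (show j x ∈ W₀ ⊔ U.map j from hx)
    have h1 := congrArg r hy
    rw [map_add, hrW w hw, hrj, hrj, zero_add] at h1
    rw [← h1]; exact hz
  · intro hx
    exact Submodule.mem_sup_right ⟨x, hx, rfl⟩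

theorem Mx_comap (h : Cmp F F' j W₀) [FiniteDimensional K X] {U : Submodule K V} (hU : Mx F U) (hW : W₀ ≤ U) :
    Mx F' (U.comap j) := by
  refine ⟨TS_comap_j h hU.1, fun U' hU' hle => ?_⟩
  have h1 : W₀ ⊔ U'.map j = U := hU.2 _ (TS_sup_j h hU') (by
    conv_lhs => rw [← sup_comap_j h hU.1 hW]
    exact sup_le_sup_left (Submodule.map_mono hle) _)
  rw [← h1, comap_sup_j h]

theorem Mx_sup (h : Cmp F F' j W₀) {U : Submodule K X} (hU : Mx F' U) : Mx F (W₀ ⊔ U.map j) := by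
  refine ⟨TS_sup_j h hU.1, fun U' hU' hle => ?_⟩
  have hW : W₀ ≤ U' := le_sup_left.trans hle
  have h1 : U'.comap j = U := hU.2 _ (TS_comap_j h hU') fun x hx => hle (Submodule.mem_sup_right ⟨x, hx, rfl⟩)
  rw [← sup_comap_j h hU' hW, h1]

/-- **the permutation character of the maximal totally singular subspaces above `W₀`** -/
theorem pm_rho [FiniteDimensional K V] [FiniteDimensional K X] (h : Cmp F F' j W₀)
    {ρ : stabW F.iso.subtype W₀ →* F'.iso}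
    (hρ1 : ∀ (g : stabW F.iso.subtype W₀) x, ((g : F.iso) : V ≃ₗ[K] V) (j x) - j ((ρ g : X ≃ₗ[K] X) x) ∈ W₀)
    (g : stabW F.iso.subtype W₀) : pm F g W₀ = pm F' (ρ g) ⊥ := by
  unfold pm
  congr 1
  refine Nat.card_congr
    { toFun := fun U => ⟨U.1.comap j, Mx_comap h U.2.1 U.2.2.1, bot_le, map_eq_of_le F'.iso.subtype fun x hx => ?_⟩
      invFun := fun U => ⟨W₀ ⊔ U.1.map j, Mx_sup h U.2.1, le_sup_left, map_eq_of_le F.iso.subtype fun v hv => ?_⟩
      left_inv := fun U => Subtype.ext (sup_comap_j h U.2.1.1 U.2.2.1)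
      right_inv := fun U => Subtype.ext (comap_sup_j h U.1) }
  · change j ((ρ g : X ≃ₗ[K] X) x) ∈ U.1
    have h1 : U.1.map (F.iso.subtype (g : F.iso) : V →ₗ[K] V) = U.1 := U.2.2.2
    have h2 : ((g : F.iso) : V ≃ₗ[K] V) (j x) ∈ U.1 := stab_mem h1 hx
    have h3 := U.1.sub_mem h2 (U.2.2.1 (hρ1 g x))
    rwa [sub_sub_cancel] at h3
  · change ((g : F.iso) : V ≃ₗ[K] V) v ∈ W₀ ⊔ U.1.map j
    obtain ⟨w, hw, y, ⟨x, hx, rfl⟩, rfl⟩ := Submodule.mem_sup.1 hv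
    rw [map_add]
    have h1 : U.1.map (F'.iso.subtype (ρ g) : X →ₗ[K] X) = U.1 := U.2.2.2
    have h2 : (ρ g : X ≃ₗ[K] X) x ∈ U.1 := stab_mem h1 hx
    have h3 : ((g : F.iso) : V ≃ₗ[K] V) (j x) =
        (((g : F.iso) : V ≃ₗ[K] V) (j x) - j ((ρ g : X ≃ₗ[K] X) x)) + j ((ρ g : X ≃ₗ[K] X) x) := by abel
    refine Submodule.add_mem _ (Submodule.mem_sup_left (stab_mem g.2 hw)) ?_
    rw [h3]
    exact Submodule.add_mem _ (Submodule.mem_sup_left (hρ1 g x)) (Submodule.mem_sup_right ⟨_, h2, rfl⟩)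

theorem Mx_map {U : Submodule K V} (hU : Mx F U) (x : F.iso) : Mx F (U.map (F.iso.subtype x : V →ₗ[K] V)) := by
  refine ⟨hU.1.map x, fun U' hU' hle => ?_⟩
  have h1 : U'.map (F.iso.subtype x⁻¹ : V →ₗ[K] V) = U := hU.2 _ (hU'.map x⁻¹) (by
    have h2 := Submodule.map_mono (f := (F.iso.subtype x⁻¹ : V →ₗ[K] V)) hle
    rw [← map_mul_apply, inv_mul_cancel, map_one] at h2
    have h3 : U.map ((1 : V ≃ₗ[K] V) : V →ₗ[K] V) = U := Submodule.map_id _
    rw [h3] at h2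
    exact h2)
  rw [← h1, ← map_mul_apply, mul_inv_cancel, map_one]
  exact (Submodule.map_id _).symm

theorem map_inj' (x : F.iso) (U : Submodule K V) :
    (U.map (F.iso.subtype x : V →ₗ[K] V)).map (F.iso.subtype x⁻¹ : V →ₗ[K] V) = U := by
  rw [← map_mul_apply, inv_mul_cancel, map_one]
  exact Submodule.map_id _

theorem map_inj'' (x : F.iso) (U : Submodule K V) :
    (U.map (F.iso.subtype x⁻¹ : V →ₗ[K] V)).map (F.iso.subtype x : V →ₗ[K] V) = U := by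
  rw [← map_mul_apply, mul_inv_cancel, map_one]
  exact Submodule.map_id _

theorem pm_conj (x g : F.iso) (W : Submodule K V) :
    pm F (x * g * x⁻¹) (W.map (F.iso.subtype x : V →ₗ[K] V)) = pm F g W := by
  unfold pm
  congr 1
  refine Nat.card_congr
    { toFun := fun U => ⟨U.1.map (F.iso.subtype x⁻¹ : V →ₗ[K] V), Mx_map U.2.1 _, ?_, ?_⟩
      invFun := fun U => ⟨U.1.map (F.iso.subtype x : V →ₗ[K] V), Mx_map U.2.1 _, Submodule.map_mono U.2.2.1, ?_⟩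
      left_inv := fun U => Subtype.ext (map_inj'' x U.1)
      right_inv := fun U => Subtype.ext (map_inj' x U.1) }
  · have := Submodule.map_mono (f := (F.iso.subtype x⁻¹ : V →ₗ[K] V)) U.2.2.1
    rwa [map_inj'] at this
  · have h1 : U.1.map (F.iso.subtype (x * g * x⁻¹) : V →ₗ[K] V) = U.1 := U.2.2.2
    rw [← map_mul_apply]
    conv_rhs => rw [← h1]
    rw [← map_mul_apply]
    congr 3
    group
  · have h1 : U.1.map (F.iso.subtype g : V →ₗ[K] V) = U.1 := U.2.2.2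
    rw [← map_mul_apply]
    conv_rhs => rw [← h1]
    rw [← map_mul_apply]
    congr 3
    group

theorem pm_class [Finite V] : IsClassFunction F.iso fun g => pm F g ⊥ := by
  intro g x
  have h1 := pm_conj x g (⊥ : Submodule K V)
  rw [Submodule.map_bot] at h1
  exact h1

/-! ### the vanishing -/

/-- the local sums are natural numbers -/
theorem JJ_nat [FiniteDimensional K V] [Finite V] [Finite K] [Fintype F.iso] {k : ℕ} {c : GL (Fin k) K → ℂ}
    (hc : IsCharacter _ c)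
    {ψ ψ' : F.iso → Submodule K V → ℂ} {W W' : Submodule K V} (hW : finrank K W = k) (hW' : finrank K W' = k)
    (h1 : IsCharacter (stabW F.iso.subtype W) fun g => ψ g W)
    (h2 : IsCharacter (stabW F.iso.subtype W') fun g => ψ' g W') : ∃ n : ℕ, JJ F c ψ ψ' W W' = n := by
  classical
  have := isoFin F
  let _ : Fintype ↥(stabW F.iso.subtype W ⊓ stabW F.iso.subtype W') := Fintype.ofFinite _
  rw [JJ_eq_sub W W']
  have hcl : IsClassFunction _ c := Core.isCharacter_isClassFunction hc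
  have key : ∀ (U : Submodule K V), finrank K U = k → ∀ (η : F.iso → Submodule K V → ℂ),
      IsCharacter (stabW F.iso.subtype U) (fun g => η g U) →
      IsCharacter (stabW F.iso.subtype U) fun g => flagTerm F.iso.subtype c g U * η g U := by
    intro U hU η hη
    let b : Basis (Fin k) K U := finBasisOfFinrankEq K U hU
    let f : stabW F.iso.subtype U →* GL (Fin k) K := (glE b).toMonoidHom.comp (resHom F.iso.subtype U)
    have hft : ∀ g : stabW F.iso.subtype U, flagTerm F.iso.subtype c g U = c (f g) := by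
      intro g
      rw [flagTerm_of F.iso.subtype c g.2, cl_eq hcl b]
      rfl
    have : (fun g : stabW F.iso.subtype U => flagTerm F.iso.subtype c g U * η g U) =
        (c ∘ f) * (fun g : stabW F.iso.subtype U => η g U) := by
      ext g
      rw [hft]
      rfl
    rw [this]
    exact Core.isCharacter_mul (Core.isCharacter_comp f hc) hη
  have k1 := Core.isCharacter_comp (Subgroup.inclusion (inf_le_left :
    stabW F.iso.subtype W ⊓ stabW F.iso.subtype W' ≤ stabW F.iso.subtype W)) (key W hW ψ h1)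
  have k2 := Core.isCharacter_comp (Subgroup.inclusion (inf_le_right :
    stabW F.iso.subtype W ⊓ stabW F.iso.subtype W' ≤ stabW F.iso.subtype W')) (key W' hW' ψ' h2)
  obtain ⟨n, hn⟩ := Core.classInner_isNat k1 k2
  refine ⟨Nat.card ↥(stabW F.iso.subtype W ⊓ stabW F.iso.subtype W') * n, ?_⟩
  rw [Core.classInner_def] at hn
  have h3 : (Nat.card ↥(stabW F.iso.subtype W ⊓ stabW F.iso.subtype W') : ℂ) ≠ 0 := card_ne_zero'
  rw [Nat.cast_mul, ← hn, ← mul_assoc, mul_inv_cancel₀ h3, one_mul]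
  rfl

/-- `psf` gives characters -/
theorem isCharacter_psf {ψ₁ : stabW F.iso.subtype W₀ → ℂ} (hψ : IsCharacter _ ψ₁)
    (hcl : IsClassFunction _ ψ₁) (x : F.iso) :
    IsCharacter (stabW F.iso.subtype (W₀.map (F.iso.subtype x : V →ₗ[K] V)))
      fun g => psf F W₀ ψ₁ g (W₀.map (F.iso.subtype x : V →ₗ[K] V)) := by
  let f : stabW F.iso.subtype (W₀.map (F.iso.subtype x : V →ₗ[K] V)) →* stabW F.iso.subtype W₀ :=
    { toFun := fun g => ⟨x⁻¹ * g * x, stabW_map.1 g.2⟩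
      map_one' := by
        apply Subtype.ext
        change x⁻¹ * 1 * x = 1
        group
      map_mul' := fun g h => by
        apply Subtype.ext
        change x⁻¹ * (g * h) * x = x⁻¹ * g * x * (x⁻¹ * h * x)
        group }
  have : (fun g : stabW F.iso.subtype (W₀.map (F.iso.subtype x : V →ₗ[K] V)) =>
      psf F W₀ ψ₁ g (W₀.map (F.iso.subtype x : V →ₗ[K] V))) = ψ₁ ∘ f :=
    funext fun g => psf_eq hcl rfl (stabW_map.1 g.2)
  rw [this]
  exact Core.isCharacter_comp f hψ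

theorem JJ_add_left [Fintype F.iso] {k : ℕ} (c : GL (Fin k) K → ℂ) (ψ₁ ψ₂ ψ' : F.iso → Submodule K V → ℂ)
    (W W' : Submodule K V) :
    JJ F c (fun g U => ψ₁ g U + ψ₂ g U) ψ' W W' = JJ F c ψ₁ ψ' W W' + JJ F c ψ₂ ψ' W W' := by
  unfold JJ
  rw [← Finset.sum_add_distrib]
  refine Finset.sum_congr rfl fun g _ => ?_
  ring

theorem JJ_add_right [Fintype F.iso] {k : ℕ} (c : GL (Fin k) K → ℂ) (ψ ψ₁ ψ₂ : F.iso → Submodule K V → ℂ)
    (W W' : Submodule K V) :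
    JJ F c ψ (fun g U => ψ₁ g U + ψ₂ g U) W W' = JJ F c ψ ψ₁ W W' + JJ F c ψ ψ₂ W W' := by
  unfold JJ
  rw [← Finset.sum_add_distrib]
  refine Finset.sum_congr rfl fun g _ => ?_
  rw [map_mul, map_mul, map_mul, map_add]
  ring

/-- **the vanishing at the orthogonal disjoint subspaces** -/
theorem JJ_psf [FiniteDimensional K V] [Finite V] [Finite K] [FiniteDimensional K X] [Finite X] [Fintype F.iso]
    {k : ℕ} (hk : 2 ≤ k) {c : GL (Fin k) K → ℂ}
    (hc : IsCharacter _ c) (hcusp : IsCusp c) (h : Cmp F F' j W₀) (hW₀ : W₀ ∈ F.Om k)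
    {ρ : stabW F.iso.subtype W₀ →* F'.iso}
    (hρ1 : ∀ (g : stabW F.iso.subtype W₀) x, ((g : F.iso) : V ≃ₗ[K] V) (j x) - j ((ρ g : X ≃ₗ[K] X) x) ∈ W₀)
    {χ θ χ' θ' : F'.iso → ℂ} (hχ : IsCharacter _ χ) (hθ : IsCharacter _ θ) (hχ' : IsCharacter _ χ')
    (hθ' : IsCharacter _ θ') (e : ∀ g, χ g + θ g = pm F' g ⊥) (e' : ∀ g, χ' g + θ' g = pm F' g ⊥)
    {W' : Submodule K V} (hW' : W' ∈ F.Om k) (hperp : W₀ ≤ F.perp W') (h0 : W₀ ⊓ W' = ⊥) :
    JJ F c (psf F W₀ fun s => χ (ρ s)) (psf F W₀ fun s => χ' (ρ s)) W₀ W' = 0 := by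
  classical
  have := isoFin F
  have := isoFin F'
  obtain ⟨x, hx⟩ := F.trans_Om hW₀ hW'
  have cc : ∀ {η : F'.iso → ℂ}, IsCharacter _ η → IsCharacter (stabW F.iso.subtype W₀) fun s => η (ρ s) :=
    fun hη => Core.isCharacter_comp ρ hη
  have a0 : ∀ {η : F'.iso → ℂ}, IsCharacter _ η →
      IsCharacter (stabW F.iso.subtype W₀) fun g => psf F W₀ (fun s => η (ρ s)) g W₀ := by
    intro η hη
    have : (fun g : stabW F.iso.subtype W₀ => psf F W₀ (fun s => η (ρ s)) g W₀) = fun s => η (ρ s) :=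
      funext fun g => psf_self (Core.isCharacter_isClassFunction (cc hη)) g
    rw [this]; exact cc hη
  have a1 : ∀ {η : F'.iso → ℂ}, IsCharacter _ η →
      IsCharacter (stabW F.iso.subtype W') fun g => psf F W₀ (fun s => η (ρ s)) g W' := by
    intro η hη
    have := isCharacter_psf (cc hη) (Core.isCharacter_isClassFunction (cc hη)) x
    rwa [hx] at this
  have hπ : ∀ {η ζ : F'.iso → ℂ}, IsCharacter _ η → IsCharacter _ ζ → (∀ g, η g + ζ g = pm F' g ⊥) →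
      ∀ U : Submodule K V, (∃ y : F.iso, W₀.map (F.iso.subtype y : V →ₗ[K] V) = U) → ∀ g ∈ stabW F.iso.subtype U,
      psf F W₀ (fun s => η (ρ s)) g U + psf F W₀ (fun s => ζ (ρ s)) g U = pm F g U := by
    intro η ζ hη hζ he U hU g hg
    obtain ⟨y, hy⟩ := hU
    have hs : y⁻¹ * g * y ∈ stabW F.iso.subtype W₀ := stabW_map.1 (by rw [hy]; exact hg)
    rw [psf_eq (Core.isCharacter_isClassFunction (cc hη)) hy hs,
      psf_eq (Core.isCharacter_isClassFunction (cc hζ)) hy hs, he, ← pm_rho h hρ1, ← pm_conj y, hy]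
    congr 1
    change y * (y⁻¹ * g * y) * y⁻¹ = g
    group
  have hW1 : ∃ y : F.iso, W₀.map (F.iso.subtype y : V →ₗ[K] V) = W₀ := ⟨1, by rw [map_one]; exact Submodule.map_id _⟩
  let _ : Fintype ↥(stabW F.iso.subtype W₀ ⊓ stabW F.iso.subtype W') := Fintype.ofFinite _
  have h1 : JJ F c (fun g U => psf F W₀ (fun s => χ (ρ s)) g U + psf F W₀ (fun s => θ (ρ s)) g U)
      (fun g U => psf F W₀ (fun s => χ' (ρ s)) g U + psf F W₀ (fun s => θ' (ρ s)) g U) W₀ W' = 0 := by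
    rw [JJ_eq_sub W₀ W', ← sum_max hk hc hcusp hW₀ hW' hperp h0]
    refine Finset.sum_congr rfl fun g _ => ?_
    rw [hπ hχ hθ e W₀ hW1 g g.2.1, hπ hχ' hθ' e' W' ⟨x, hx⟩ g g.2.2]
  rw [JJ_add_left, JJ_add_right, JJ_add_right] at h1
  obtain ⟨n1, e1⟩ := JJ_nat hc hW₀.2 hW'.2 (a0 hχ) (a1 hχ')
  obtain ⟨n2, e2⟩ := JJ_nat hc hW₀.2 hW'.2 (a0 hχ) (a1 hθ')
  obtain ⟨n3, e3⟩ := JJ_nat hc hW₀.2 hW'.2 (a0 hθ) (a1 hχ')
  obtain ⟨n4, e4⟩ := JJ_nat hc hW₀.2 hW'.2 (a0 hθ) (a1 hθ')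
  rw [e1, e2, e3, e4] at h1
  have h2 : n1 + n2 + (n3 + n4) = 0 := by exact_mod_cast h1
  have h3 : n1 = 0 := by omega
  rw [e1, h3, Nat.cast_zero]

/-- **The norm**, `χ`, `χ'` constituents of the permutation character of the maximal totally singular subspaces. -/
theorem inner_psf [FiniteDimensional K V] [Finite V] [Finite K] [FiniteDimensional K X] [Finite X]
    [Fintype F.iso] [Fintype F'.iso] {k : ℕ} [Fintype (F.Om k)] (hk : 2 ≤ k) {c : GL (Fin k) K → ℂ}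
    (hc : IsIrrCharacter _ c) (hcusp : IsCusp c) (hself : c ∘ F.iota k = c) (h : Cmp F F' j W₀) (hW₀ : W₀ ∈ F.Om k)
    {ρ : stabW F.iso.subtype W₀ →* F'.iso}
    (hρ1 : ∀ (g : stabW F.iso.subtype W₀) x, ((g : F.iso) : V ≃ₗ[K] V) (j x) - j ((ρ g : X ≃ₗ[K] X) x) ∈ W₀)
    (hρT : ∀ g : stabW F.iso.subtype W₀, (g : F.iso) ∈ F.TT W₀ → ρ g = 1)
    (hρs : ∀ (a : W₀ ≃ₗ[K] W₀) (b : F'.iso), ∃ g : stabW F.iso.subtype W₀, ρ g = b ∧
      ∀ w : W₀, ((g : F.iso) : V ≃ₗ[K] V) w = a w)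
    {χ θ χ' θ' : F'.iso → ℂ} (hχ : IsCharacter _ χ) (hθ : IsCharacter _ θ) (hχ' : IsCharacter _ χ')
    (hθ' : IsCharacter _ θ') (e : ∀ g, χ g + θ g = pm F' g ⊥) (e' : ∀ g, χ' g + θ' g = pm F' g ⊥) :
    classInner (F.hc c (psf F W₀ fun s => χ (ρ s))) (F.hc c (psf F W₀ fun s => χ' (ρ s))) = 2 * classInner χ χ' := by
  classical
  have hcl : ∀ {η : F'.iso → ℂ}, IsCharacter _ η → IsClassFunction (stabW F.iso.subtype W₀) fun s => η (ρ s) :=
    fun hη => Core.isCharacter_isClassFunction (Core.isCharacter_comp ρ hη)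
  exact inner_hc hc hcusp hself (psf_conj (hcl hχ)) (psf_conj (hcl hχ')) hW₀ (by omega) ρ hρT hρs hχ hχ'
    (fun g => psf_self (hcl hχ) g) (fun g => psf_self (hcl hχ') g)
    (fun W' hW' h0 g hg hg' => psf_opp h hρ1 (Core.isCharacter_isClassFunction hχ') hW'.1
      (by rw [hW₀.2, hW'.2]) h0 hg hg')
    (fun W' hW' hp h0 => JJ_psf hk (Core.isIrr_isCharacter hc) hcusp h hW₀ hρ1 hχ hθ hχ' hθ' e e' hW' hp h0)

/-! ### the permutation character on `F'.Om n` -/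

/-- the maximal totally singular subspaces have the same dimension -/
theorem Mx_iff [FiniteDimensional K V] {n : ℕ} (hmax : ∀ U, F.TS U → finrank K U ≤ n) (hne : (F.Om n).Nonempty)
    {U : Submodule K V} : Mx F U ↔ U ∈ F.Om n := by
  obtain ⟨L, hL⟩ := hne
  constructor
  · intro hU
    refine ⟨hU.1, ?_⟩
    obtain ⟨L', hL', hd⟩ : ∃ L' ≤ L, finrank K L' = finrank K U := by
      exact exists_sub L (by rw [hL.2]; exact hmax U hU.1)
    obtain ⟨x, hx⟩ := F.trans_Om (k := finrank K U) (W := L') (W' := U) ⟨hL.1.mono hL', hd⟩ ⟨hU.1, rfl⟩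
    have h1 : U ≤ L.map (F.iso.subtype x : V →ₗ[K] V) := by
      rw [← hx]; exact Submodule.map_mono hL'
    have h2 := hU.2 _ (hL.1.map x) h1
    rw [← h2, ← hL.2]
    exact LinearEquiv.finrank_map_eq (x : V ≃ₗ[K] V) L
  · intro hU
    exact ⟨hU.1, fun U' hU' hle => (Submodule.eq_of_le_of_finrank_le hle (by rw [hU.2]; exact hmax U' hU')).symm⟩

theorem pm_eq_om [FiniteDimensional K V] {n : ℕ} (hmax : ∀ U, F.TS U → finrank K U ≤ n) (hne : (F.Om n).Nonempty)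
    (g : F.iso) : letI := subAct F.iso.subtype (F.Om n) F.Om_map
    pm F g ⊥ = (Nat.card {y : F.Om n // g • y = y} : ℂ) := by
  letI := subAct F.iso.subtype (F.Om n) F.Om_map
  change pm F g ⊥ = (Nat.card {y : F.Om n // g • y = y} : ℂ)
  unfold pm
  congr 1
  exact Nat.card_congr
    { toFun := fun U => ⟨⟨U.1, (Mx_iff hmax hne).1 U.2.1⟩, Subtype.ext U.2.2.2⟩
      invFun := fun U => ⟨U.1.1, (Mx_iff hmax hne).2 U.1.2, bot_le, congrArg Subtype.val U.2⟩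
      left_inv := fun _ => rfl
      right_inv := fun _ => rfl }

theorem classInner_pi_theta [FiniteDimensional K V] [Finite V] [Fintype F.iso] {n : ℕ}
    (hmax : ∀ U, F.TS U → finrank K U ≤ n) (hne : (F.Om n).Nonempty) {χ : F.iso → ℂ} (hχ : IsIrrCharacter _ χ)
    (h : letI := subAct F.iso.subtype (F.Om n) F.Om_map
      classInner (fun g : F.iso => (Nat.card {y : F.Om n // g • y = y} : ℂ)) χ ≠ 0) :
    ∃ θ : F.iso → ℂ, IsCharacter _ θ ∧ ∀ g, χ g + θ g = pm F g ⊥ := by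
  classical
  letI := subAct F.iso.subtype (F.Om n) F.Om_map
  have : Finite (F.Om n) := finite_Om F n
  let _ : Fintype (F.Om n) := Fintype.ofFinite _
  have hπ : IsCharacter F.iso (fun g : F.iso => (Nat.card {y : F.Om n // g • y = y} : ℂ)) :=
    S0157.isCharacter_fixedBy (F.Om n)
  refine ⟨_, isCharacter_sub_irr hπ hχ h, fun g => ?_⟩
  rw [pm_eq_om hmax hne g, Pi.sub_apply]
  ring

/-- **The norm**, in the form of helper501's `hN`. -/
theorem inner_psf_irr [FiniteDimensional K V] [Finite V] [Finite K] [FiniteDimensional K X] [Finite X]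
    [Fintype F.iso] [Fintype F'.iso] {k n : ℕ} [Fintype (F.Om k)] (hk : 2 ≤ k) {c : GL (Fin k) K → ℂ}
    (hc : IsIrrCharacter _ c) (hcusp : IsCusp c) (hself : c ∘ F.iota k = c) (h : Cmp F F' j W₀) (hW₀ : W₀ ∈ F.Om k)
    {ρ : stabW F.iso.subtype W₀ →* F'.iso}
    (hρ1 : ∀ (g : stabW F.iso.subtype W₀) x, ((g : F.iso) : V ≃ₗ[K] V) (j x) - j ((ρ g : X ≃ₗ[K] X) x) ∈ W₀)
    (hρT : ∀ g : stabW F.iso.subtype W₀, (g : F.iso) ∈ F.TT W₀ → ρ g = 1)
    (hρs : ∀ (a : W₀ ≃ₗ[K] W₀) (b : F'.iso), ∃ g : stabW F.iso.subtype W₀, ρ g = b ∧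
      ∀ w : W₀, ((g : F.iso) : V ≃ₗ[K] V) w = a w)
    (hmax : ∀ U, F'.TS U → finrank K U ≤ n) (hne : (F'.Om n).Nonempty) :
    letI := subAct F'.iso.subtype (F'.Om n) F'.Om_map
    ∀ χ₁ χ₂ : IrrCharacter F'.iso,
      classInner (fun g : F'.iso => (Nat.card {y : F'.Om n // g • y = y} : ℂ)) χ₁ ≠ 0 →
      classInner (fun g : F'.iso => (Nat.card {y : F'.Om n // g • y = y} : ℂ)) χ₂ ≠ 0 →
      classInner (F.hc c (psf F W₀ ((χ₁ : F'.iso → ℂ) ∘ ρ))) (F.hc c (psf F W₀ ((χ₂ : F'.iso → ℂ) ∘ ρ))) =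
        if χ₁ = χ₂ then 2 else 0 := by
  classical
  intro χ₁ χ₂ h1 h2
  obtain ⟨θ₁, hθ₁, e₁⟩ := classInner_pi_theta hmax hne χ₁.2 h1
  obtain ⟨θ₂, hθ₂, e₂⟩ := classInner_pi_theta hmax hne χ₂.2 h2
  have h3 := inner_psf hk hc hcusp hself h hW₀ hρ1 hρT hρs (Core.isIrr_isCharacter χ₁.2) hθ₁
    (Core.isIrr_isCharacter χ₂.2) hθ₂ e₁ e₂
  have h4 : classInner (F.hc c (psf F W₀ ((χ₁ : F'.iso → ℂ) ∘ ρ))) (F.hc c (psf F W₀ ((χ₂ : F'.iso → ℂ) ∘ ρ))) =
      2 * classInner (χ₁ : F'.iso → ℂ) (χ₂ : F'.iso → ℂ) := h3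
  rw [h4]
  split_ifs with h5
  · subst h5
    rw [Core.classInner_irr_self χ₁.2, mul_one]
  · rw [Core.classInner_irr_ne χ₁.2 χ₂.2 fun h6 => h5 (Subtype.ext h6), mul_zero]

/-! ### the two constituents -/

/-- the induced function is a character -/
theorem isCharacter_hc [FiniteDimensional K V] [Finite V] [Finite K] {k : ℕ} [Fintype (F.Om k)]
    {c : GL (Fin k) K → ℂ} (hc : IsCharacter _ c) {ψ : F.iso → Submodule K V → ℂ}
    (hψ : ∀ x g W, ψ (x * g * x⁻¹) (W.map (F.iso.subtype x : V →ₗ[K] V)) = ψ g W) {W₀ : Submodule K V}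
    (hW₀ : W₀ ∈ F.Om k) (hψc : IsCharacter (stabW F.iso.subtype W₀) fun g => ψ g W₀) :
    IsCharacter F.iso (F.hc c ψ) := by
  classical
  have := isoFin F
  let _ : Fintype F.iso := Fintype.ofFinite _
  letI := subAct F.iso.subtype (F.Om k) F.Om_map
  have hcl := Core.isCharacter_isClassFunction hc
  rw [hc_eq_orbSum F]
  refine H576.Ext.isCharacter_orbSum _ (fun x g W => ?_) fun W => ?_
  · have h1 := flagTerm_conj F.iso.subtype hcl x g W.1
    have h2 := hψ x g W.1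
    exact congrArg₂ (· * ·) h1 h2
  · obtain ⟨x, hx⟩ := F.trans_Om hW₀ W.2
    let b : Basis (Fin k) K W₀ := finBasisOfFinrankEq K W₀ hW₀.2
    have hst : ∀ g : stabilizer F.iso W, x⁻¹ * g * x ∈ stabW F.iso.subtype W₀ := by
      intro g
      rw [← stabW_map, hx]
      exact congrArg Subtype.val (mem_stabilizer_iff.1 g.2)
    let f : stabilizer F.iso W →* stabW F.iso.subtype W₀ :=
      { toFun := fun g => ⟨x⁻¹ * g * x, hst g⟩
        map_one' := by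
          apply Subtype.ext
          change x⁻¹ * 1 * x = 1
          group
        map_mul' := fun g h => by
          apply Subtype.ext
          change x⁻¹ * (g * h) * x = x⁻¹ * g * x * (x⁻¹ * h * x)
          group }
    let f' : stabW F.iso.subtype W₀ →* GL (Fin k) K := (glE b).toMonoidHom.comp (resHom F.iso.subtype W₀)
    have h1 : IsCharacter (stabW F.iso.subtype W₀) fun g => flagTerm F.iso.subtype c g W₀ * ψ g W₀ := by
      have : (fun g : stabW F.iso.subtype W₀ => flagTerm F.iso.subtype c g W₀ * ψ g W₀) =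
          (c ∘ f') * (fun g : stabW F.iso.subtype W₀ => ψ g W₀) := by
        ext g
        change flagTerm F.iso.subtype c g W₀ * ψ g W₀ = c (f' g) * ψ g W₀
        rw [flagTerm_of F.iso.subtype c g.2, cl_eq hcl b]
        rfl
      rw [this]
      exact Core.isCharacter_mul (Core.isCharacter_comp f' hc) hψc
    have h2 := Core.isCharacter_comp f h1
    have h3 : (fun g : stabW F.iso.subtype W₀ => flagTerm F.iso.subtype c g W₀ * ψ g W₀) ∘ f =
        stabFun (fun g (W : F.Om k) => flagTerm F.iso.subtype c g W.1 * ψ g W.1) W := by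
      ext g
      change flagTerm F.iso.subtype c (x⁻¹ * g * x) W₀ * ψ (x⁻¹ * g * x) W₀ =
        flagTerm F.iso.subtype c g W.1 * ψ g W.1
      rw [← flagTerm_conj F.iso.subtype hcl x (x⁻¹ * g * x) W₀, ← hψ x (x⁻¹ * g * x) W₀, hx]
      have e : x * (x⁻¹ * (g : F.iso) * x) * x⁻¹ = g := by group
      rw [e]
    rw [← h3]; exact h2

theorem isCharacter_hc_psf [FiniteDimensional K V] [Finite V] [Finite K] {k : ℕ} [Fintype (F.Om k)]
    {c : GL (Fin k) K → ℂ} (hc : IsCharacter _ c) (hW₀ : W₀ ∈ F.Om k) {ψ₁ : stabW F.iso.subtype W₀ → ℂ}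
    (hψ : IsCharacter _ ψ₁) : IsCharacter F.iso (F.hc c (psf F W₀ ψ₁)) := by
  have := isoFin F
  have hcl := Core.isCharacter_isClassFunction hψ
  refine isCharacter_hc hc (psf_conj hcl) hW₀ ?_
  have : (fun g : stabW F.iso.subtype W₀ => psf F W₀ ψ₁ g W₀) = ψ₁ := funext fun g => psf_self hcl g
  rw [this]; exact hψ

/-- **`R(c ⊗ χ) = X₁ + X₂`**, `X₁ ≠ X₂`, when the norm is two -/
theorem exists_two_of_norm [FiniteDimensional K V] [Finite V] [Finite K] [Fintype F.iso] {k : ℕ} [Fintype (F.Om k)]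
    {c : GL (Fin k) K → ℂ} (hc : IsCharacter _ c) (hW₀ : W₀ ∈ F.Om k) {ψ₁ : stabW F.iso.subtype W₀ → ℂ}
    (hψ : IsCharacter _ ψ₁) (hN : classInner (F.hc c (psf F W₀ ψ₁)) (F.hc c (psf F W₀ ψ₁)) = 2) :
    ∃ X₁ X₂ : IrrCharacter F.iso, X₁ ≠ X₂ ∧ F.hc c (psf F W₀ ψ₁) = (X₁ : F.iso → ℂ) + (X₂ : F.iso → ℂ) := by
  obtain ⟨χ₁, χ₂, h1, h2, h3, h4⟩ := H113.NormTwoChar.exists_add_of_norm_two (isCharacter_hc_psf hc hW₀ hψ) hN
  exact ⟨⟨χ₁, h1⟩, ⟨χ₂, h2⟩, fun h => h3 (congrArg Subtype.val h), h4⟩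

/-! ### the smallest group: `W₀` maximal -/

theorem no_perp [FiniteDimensional K V] {k : ℕ} (hk : 0 < k) (hmax : ∀ U, F.TS U → finrank K U ≤ k)
    (hW₀ : W₀ ∈ F.Om k) : ∀ W' ∈ F.Om k, W₀ ≤ F.perp W' → W₀ ⊓ W' = ⊥ → False := by
  intro W' hW' h1 h2
  have h3 := hmax _ (F.TS_sup hW₀.1 hW'.1 h1)
  have h4 := Submodule.finrank_sup_add_finrank_inf_eq W₀ W'
  rw [h2, finrank_bot, hW₀.2, hW'.2] at h4
  omega

/-- **`W₀` maximal**: the norm of `R(c)` is two. -/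
theorem inner_hc_one [FiniteDimensional K V] [Finite V] [Finite K] [Fintype F.iso] {k : ℕ} [Fintype (F.Om k)]
    (hk : 0 < k) {c : GL (Fin k) K → ℂ} (hc : IsIrrCharacter _ c) (hcusp : IsCusp c) (hself : c ∘ F.iota k = c)
    (hW₀ : W₀ ∈ F.Om k) (hmax : ∀ U, F.TS U → finrank K U ≤ k) :
    classInner (F.hc c (fun _ _ => 1)) (F.hc c (fun _ _ => 1)) = 2 := by
  classical
  let ρ : stabW F.iso.subtype W₀ →* PUnit.{1} := 1
  have h1 : IsCharacter PUnit.{1} (1 : PUnit.{1} → ℂ) := Core.isCharacter_one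
  have h2 := inner_hc (G' := PUnit.{1}) hc hcusp hself (ψ := fun _ _ => 1) (ψ' := fun _ _ => 1)
    (fun _ _ _ => rfl) (fun _ _ _ => rfl) hW₀ hk ρ (fun _ _ => rfl) (fun a b => by
      obtain ⟨g, hg⟩ := F.exists_levi' hW₀.1 a
      refine ⟨⟨g, map_eq_of_le F.iso.subtype fun w hw => ?_⟩, rfl, fun w => hg w⟩
      change (g : V ≃ₗ[K] V) w ∈ W₀
      rw [hg ⟨w, hw⟩]
      exact (a ⟨w, hw⟩).2) h1 h1 (fun _ => rfl) (fun _ => rfl) (fun _ _ _ _ _ _ => rfl)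
    (fun W' hW' h3 h4 => (no_perp hk hmax hW₀ W' hW' h3 h4).elim)
  rw [h2, Core.classInner_irr_self Core.isIrr_one, mul_one]

theorem exists_two_one [FiniteDimensional K V] [Finite V] [Finite K] [Fintype F.iso] {k : ℕ} [Fintype (F.Om k)]
    (hk : 0 < k) {c : GL (Fin k) K → ℂ} (hc : IsIrrCharacter _ c) (hcusp : IsCusp c) (hself : c ∘ F.iota k = c)
    (hW₀ : W₀ ∈ F.Om k) (hmax : ∀ U, F.TS U → finrank K U ≤ k) :
    ∃ X₁ X₂ : IrrCharacter F.iso, X₁ ≠ X₂ ∧ F.hc c (fun _ _ => 1) = (X₁ : F.iso → ℂ) + (X₂ : F.iso → ℂ) := by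
  obtain ⟨χ₁, χ₂, h1, h2, h3, h4⟩ := H113.NormTwoChar.exists_add_of_norm_two
    (isCharacter_hc (Core.isIrr_isCharacter hc) (ψ := fun _ _ => 1) (fun _ _ _ => rfl) hW₀
      (Core.isCharacter_one)) (inner_hc_one hk hc hcusp hself hW₀ hmax)
  exact ⟨⟨χ₁, h1⟩, ⟨χ₂, h2⟩, fun h => h3 (congrArg Subtype.val h), h4⟩

end Cfsg.Agent.H47.HT
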